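import Mathlib
import Cfsg.Agent.Lib.Helper59.OHyp.BlkDefs
import Cfsg.Agent.Lib.Helper40.Semisimple

/-!
# OHYP (S5992), cut of [BLK]: package [IRRDIM]

A minimal invariant subspace without fixed vectors of a matrix `x` with `x ^ r = 1` over a finite
field with `q` elements (`r` a prime not dividing `q`) has dimension `ord_r(q)`.
-/

set_option autoImplicit false

namespace Cfsg.Agent.Lib.Helper77.OHyp

open Polynomial Cfsg.Agent.Lib.Helper40 Cfsg.Agent.Lib.Helper23.OHyp Cfsg.Agent.Lib.Helper59.OHyp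

universe u v

/-- The degree of an irreducible factor of `X ^ r - 1` other than `X - 1` over a finite field
with `q` elements is the multiplicative order of `q` modulo `r`. -/
theorem natDegree_of_irr {F : Type u} [Field F] [Fintype F] (r : ℕ) (hr : r.Prime)
    (hrq : ¬ r ∣ Fintype.card F) (π : F[X]) (hπ : Irreducible π)
    (hdvd : π ∣ (X ^ r - 1 : F[X])) (hne : ¬ π ∣ (X - 1 : F[X])) :
    π.natDegree = orderOf ((Fintype.card F : ℕ) : ZMod r) := by
  haveI : Fact (Irreducible π) := ⟨hπ⟩
  haveI : Fact r.Prime := ⟨hr⟩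
  have hπ0 : π ≠ 0 := hπ.ne_zero
  obtain ⟨p, hp⟩ := CharP.exists F
  haveI := hp
  obtain ⟨k, hpp, hcardp⟩ := FiniteField.card F p
  haveI : Fact p.Prime := ⟨hpp⟩
  haveI : CharP (AdjoinRoot π) p :=
    charP_of_injective_algebraMap (algebraMap F (AdjoinRoot π)).injective p
  haveI : Module.Finite F (AdjoinRoot π) := (AdjoinRoot.powerBasis hπ0).finite
  haveI : Finite (AdjoinRoot π) := Module.finite_of_finite F
  letI : Fintype (AdjoinRoot π) := Fintype.ofFinite _
  have hfr : Module.finrank F (AdjoinRoot π) = π.natDegree := by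
    rw [(AdjoinRoot.powerBasis hπ0).finrank, AdjoinRoot.powerBasis_dim]
  have hcardK : Fintype.card (AdjoinRoot π) = Fintype.card F ^ π.natDegree := by
    rw [Module.card_eq_pow_finrank (K := F), hfr]
  have hroot : eval₂ (AdjoinRoot.of π) (AdjoinRoot.root π) π = 0 := AdjoinRoot.eval₂_root π
  have hlr : (AdjoinRoot.root π) ^ r = 1 := by
    have := eval₂_eq_zero_of_dvd_of_eval₂_eq_zero (AdjoinRoot.of π) (AdjoinRoot.root π) hdvd hroot
    simpa [eval₂_sub, eval₂_pow, eval₂_X, eval₂_one, sub_eq_zero] using this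
  have hl1 : AdjoinRoot.root π ≠ 1 := by
    intro h
    have h1 : AdjoinRoot.mk π X = AdjoinRoot.mk π 1 := by rw [AdjoinRoot.mk_X, h, map_one]
    rw [AdjoinRoot.mk_eq_mk] at h1
    exact hne h1
  have hord : orderOf (AdjoinRoot.root π) = r := orderOf_eq_prime hlr hl1
  have hl0 : AdjoinRoot.root π ≠ 0 := by
    intro h
    rw [h, zero_pow hr.ne_zero] at hlr
    exact zero_ne_one hlr
  have hq1 : 1 < Fintype.card F := Fintype.one_lt_card
  have hq0 : 0 < Fintype.card F := by omega
  -- (a) the order divides the degree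
  have ha : orderOf ((Fintype.card F : ℕ) : ZMod r) ∣ π.natDegree := by
    apply orderOf_dvd_of_pow_eq_one
    have h1 : (AdjoinRoot.root π) ^ (Fintype.card F ^ π.natDegree - 1) = 1 := by
      rw [← hcardK]
      exact FiniteField.pow_card_sub_one_eq_one _ hl0
    have h2 : r ∣ Fintype.card F ^ π.natDegree - 1 := by
      rw [← hord]
      exact orderOf_dvd_of_pow_eq_one h1
    have h3 := (ZMod.natCast_eq_zero_iff _ _).2 h2
    rw [Nat.cast_sub (Nat.one_le_pow _ _ hq0), Nat.cast_pow, Nat.cast_one, sub_eq_zero] at h3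
    exact h3
  have hnpos : 0 < π.natDegree := hπ.natDegree_pos
  obtain ⟨i, hi⟩ : ∃ i, i = orderOf ((Fintype.card F : ℕ) : ZMod r) := ⟨_, rfl⟩
  rw [← hi] at ha ⊢
  have hipos : 0 < i := Nat.pos_of_dvd_of_pos ha hnpos
  -- (b) the degree is at most the order
  have hqi : ((Fintype.card F : ℕ) : ZMod r) ^ i = 1 := by
    rw [hi]
    exact pow_orderOf_eq_one _
  have h4 : r ∣ Fintype.card F ^ i - 1 := by
    rw [← ZMod.natCast_eq_zero_iff, Nat.cast_sub (Nat.one_le_pow _ _ hq0), Nat.cast_pow,
      Nat.cast_one, hqi, sub_self]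
  have h5 : (AdjoinRoot.root π) ^ (Fintype.card F ^ i) = AdjoinRoot.root π := by
    have h6 : (AdjoinRoot.root π) ^ (Fintype.card F ^ i - 1) = 1 := by
      rw [← hord] at h4
      exact orderOf_dvd_iff_pow_eq_one.1 h4
    have h7 : Fintype.card F ^ i = (Fintype.card F ^ i - 1) + 1 := by
      have := Nat.one_le_pow i (Fintype.card F) hq0
      omega
    rw [h7, pow_succ, h6, one_mul]
  have hΦ : ∀ a : AdjoinRoot π,
      iterateFrobenius (AdjoinRoot π) p ((k : ℕ) * i) a = a ^ (Fintype.card F ^ i) := by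
    intro a
    rw [iterateFrobenius_def, pow_mul, ← hcardp]
  have hcomp : (iterateFrobenius (AdjoinRoot π) p ((k : ℕ) * i)).comp (AdjoinRoot.of π) =
      AdjoinRoot.of π := by
    ext a
    rw [RingHom.comp_apply, hΦ, ← map_pow, FiniteField.pow_card_pow]
  have hall : ∀ a : AdjoinRoot π, a ^ (Fintype.card F ^ i) = a := by
    intro a
    obtain ⟨h, rfl⟩ := AdjoinRoot.mk_surjective a
    have h8 : AdjoinRoot.mk π h = eval₂ (AdjoinRoot.of π) (AdjoinRoot.root π) h := by
      rw [← AdjoinRoot.aeval_eq, aeval_def, AdjoinRoot.algebraMap_eq]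
    rw [h8, ← hΦ, hom_eval₂, hcomp, hΦ, h5]
  have hP0 : (X ^ (Fintype.card F ^ i) - X : (AdjoinRoot π)[X]) ≠ 0 :=
    FiniteField.X_pow_card_pow_sub_X_ne_zero _ hipos.ne' hq1
  have hPdeg : (X ^ (Fintype.card F ^ i) - X : (AdjoinRoot π)[X]).natDegree =
      Fintype.card F ^ i :=
    FiniteField.X_pow_card_pow_sub_X_natDegree_eq _ hipos.ne' hq1
  have hle : Fintype.card (AdjoinRoot π) ≤ Fintype.card F ^ i := by
    calc Fintype.card (AdjoinRoot π) = (Finset.univ : Finset (AdjoinRoot π)).card :=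
          Finset.card_univ.symm
      _ ≤ (X ^ (Fintype.card F ^ i) - X : (AdjoinRoot π)[X]).roots.toFinset.card := by
          apply Finset.card_le_card
          intro a _
          rw [Multiset.mem_toFinset, mem_roots hP0, IsRoot, eval_sub, eval_pow, eval_X, hall,
            sub_self]
      _ ≤ Multiset.card (X ^ (Fintype.card F ^ i) - X : (AdjoinRoot π)[X]).roots :=
          Multiset.toFinset_card_le _
      _ ≤ (X ^ (Fintype.card F ^ i) - X : (AdjoinRoot π)[X]).natDegree := card_roots' _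
      _ = Fintype.card F ^ i := hPdeg
  rw [hcardK] at hle
  have hn_le : π.natDegree ≤ i := (Nat.pow_le_pow_iff_right hq1).1 hle
  have hi_le : i ≤ π.natDegree := Nat.le_of_dvd hnpos ha
  omega

/-- Some irreducible polynomial kills a nonzero vector of an invariant subspace that contains a
nonzero vector killed by a nonzero polynomial. -/
theorem exists_irr_ann {K : Type u} [Field K] {V : Type v} [AddCommGroup V] [Module K V]
    (f : Module.End K V) (U : Submodule K V)
    (hU : ∀ (h : K[X]) (v : V), v ∈ U → aeval f h v ∈ U) :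
    ∀ (n : ℕ) (w : V) (g : K[X]), w ∈ U → w ≠ 0 → g ≠ 0 → g.natDegree ≤ n → aeval f g w = 0 →
      ∃ (π : K[X]) (w' : V), Irreducible π ∧ w' ∈ U ∧ w' ≠ 0 ∧ aeval f π w' = 0 := by
  intro n
  induction n using Nat.strong_induction_on with
  | _ n ih =>
    intro w g hw hw0 hg0 hgn hgw
    by_cases hirr : Irreducible g
    · exact ⟨g, w, hirr, hw, hw0, hgw⟩
    · have hnu : ¬ IsUnit g := by
        intro hu
        obtain ⟨c, hc, rfl⟩ := Polynomial.isUnit_iff.1 hu
        rw [aeval_C, Module.algebraMap_end_apply] at hgw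
        rcases smul_eq_zero.1 hgw with h | h
        · exact hc.ne_zero h
        · exact hw0 h
      rw [irreducible_iff] at hirr
      push_neg at hirr
      obtain ⟨a, b, hab, ha, hb⟩ := hirr hnu
      have ha0 : a ≠ 0 := by
        rintro rfl
        exact hg0 (by rw [hab, zero_mul])
      have hb0 : b ≠ 0 := by
        rintro rfl
        exact hg0 (by rw [hab, mul_zero])
      have hdeg : g.natDegree = a.natDegree + b.natDegree := by
        rw [hab, natDegree_mul ha0 hb0]
      have hapos : 0 < a.natDegree :=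
        natDegree_pos_iff_degree_pos.2 (degree_pos_of_ne_zero_of_nonunit ha0 ha)
      have hbpos : 0 < b.natDegree :=
        natDegree_pos_iff_degree_pos.2 (degree_pos_of_ne_zero_of_nonunit hb0 hb)
      by_cases hbw : aeval f b w = 0
      · exact ih b.natDegree (by omega) w b hw hw0 hb0 le_rfl hbw
      · refine ih a.natDegree (by omega) (aeval f b w) a (hU b w hw) hbw ha0 le_rfl ?_
        rw [← Module.End.mul_apply, ← map_mul, ← hab]
        exact hgw

theorem pkgIrrDim : PkgIrrDim.{u} := by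
  intro F _ _ ι _ _ r x hr hrq hxr U hU hfix
  obtain ⟨hinv, hne, hmin⟩ := hU
  have hf_inv : ∀ v ∈ U, Matrix.toLin' x v ∈ U :=
    fun v hv => hinv (Submodule.mem_map_of_mem hv)
  have hpow : ∀ (n : ℕ) (v : ι → F), v ∈ U → ((Matrix.toLin' x) ^ n) v ∈ U := by
    intro n
    induction n with
    | zero => intro v hv; simpa using hv
    | succ n ih =>
      intro v hv
      rw [pow_succ, Module.End.mul_apply]
      exact ih _ (hf_inv v hv)
  have hpoly : ∀ (h : F[X]) (v : ι → F), v ∈ U → aeval (Matrix.toLin' x) h v ∈ U := by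
    intro h v hv
    rw [aeval_eq_sum_range, LinearMap.sum_apply]
    refine U.sum_mem fun n _ => ?_
    rw [LinearMap.smul_apply]
    exact U.smul_mem _ (hpow n v hv)
  have hcyc : ∀ w ∈ U, w ≠ 0 → cyc (Matrix.toLin' x) w = U := by
    intro w hw hw0
    have hle : cyc (Matrix.toLin' x) w ≤ U := by
      rintro _ ⟨h, rfl⟩
      exact hpoly h w hw
    have hinv' : Inv x (cyc (Matrix.toLin' x) w) :=
      (Module.End.mem_invtSubmodule_iff_map_le (Matrix.toLin' x)).1
        (cyc_invt (Matrix.toLin' x) w)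
    rcases hmin _ hle hinv' with h | h
    · exfalso
      have h1 := self_mem_cyc (Matrix.toLin' x) w
      rw [h, Submodule.mem_bot] at h1
      exact hw0 h1
    · exact h
  have hfr : (Matrix.toLin' x) ^ r = 1 := by
    rw [← Matrix.toLin'_pow, hxr, Matrix.toLin'_one]
    rfl
  have hkill : ∀ v : ι → F, aeval (Matrix.toLin' x) (X ^ r - C (1 : F)) v = 0 := by
    intro v
    rw [map_sub, map_pow, aeval_X, aeval_C, map_one, hfr, sub_self, LinearMap.zero_apply]
  obtain ⟨u, hu, hu0⟩ := Submodule.exists_mem_ne_zero_of_ne_bot hne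
  obtain ⟨π, w, hπ, hw, hw0, hπw⟩ := exists_irr_ann (Matrix.toLin' x) U hpoly r u
    (X ^ r - C (1 : F)) hu hu0 (monic_X_pow_sub_C (1 : F) hr.ne_zero).ne_zero
    (by rw [natDegree_X_pow_sub_C]) (hkill u)
  have hdvd : π ∣ (X ^ r - 1 : F[X]) := by
    have h1 := (aeval_eq_zero_iff_dvd (Matrix.toLin' x) w π hπ hw0 hπw (X ^ r - C (1 : F))).1
      (hkill w)
    rwa [map_one] at h1
  have hnd : ¬ π ∣ (X - 1 : F[X]) := by
    intro h
    have h1 : π ∣ (X - C (1 : F)) := by rwa [map_one]
    have h2 := (aeval_eq_zero_iff_dvd (Matrix.toLin' x) w π hπ hw0 hπw (X - C (1 : F))).2 h1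
    rw [map_sub, aeval_X, aeval_C, map_one, LinearMap.sub_apply, Module.End.one_apply,
      sub_eq_zero, Matrix.toLin'_apply] at h2
    exact hw0 (hfix w hw h2)
  have hdeg := natDegree_of_irr r hr hrq π hπ hdvd hnd
  have hfin : Module.finrank F (AdjoinRoot π) = π.natDegree := by
    rw [(AdjoinRoot.powerBasis hπ.ne_zero).finrank, AdjoinRoot.powerBasis_dim]
  have heq := (cycEquiv (Matrix.toLin' x) w π hπ hw0 hπw).finrank_eq
  rw [hcyc w hw hw0] at heq
  unfold ordI
  rw [← heq, hfin, hdeg]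

end Cfsg.Agent.Lib.Helper77.OHyp
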